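import Mathlib
import Cfsg.Prelude.Def_Sporadic_a

namespace Cfsg.Agent.Lib.lead.Plane4A

open Finset

/-- In a Steiner system `S(2,5,21)` (projective plane of order 4) there are exactly `1120`
triples of points no line meets in three points. -/
theorem ind3_count {α : Type*} [Fintype α] [DecidableEq α] (hα : Fintype.card α = 21)
    (L : Set (Finset α)) (hL : Cfsg.IsSteinerSystem 2 5 L) :
    {T : Finset α | T.card = 3 ∧ ∀ l ∈ L, (l ∩ T).card ≤ 2}.ncard = 1120 := by
  classical
  obtain ⟨hL5, hLu⟩ := hL
  obtain ⟨P2, hP2⟩ : ∃ P2 : Finset (Finset α), P2 = powersetCard 2 univ := ⟨_, rfl⟩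
  obtain ⟨Good, hGood⟩ : ∃ Good : Finset (Finset α),
      Good = (powersetCard 3 univ).filter (fun T => ∀ l ∈ L, (l ∩ T).card ≤ 2) := ⟨_, rfl⟩
  have hGmem : ∀ T, T ∈ Good ↔ T.card = 3 ∧ ∀ l ∈ L, (l ∩ T).card ≤ 2 := by
    intro T; rw [hGood]; simp [mem_powersetCard]
  have hPmem : ∀ e, e ∈ P2 ↔ e.card = 2 := by
    intro e; rw [hP2]; simp [mem_powersetCard]
  have hP2card : P2.card = 210 := by
    rw [hP2, card_powersetCard, card_univ, hα]
    rfl
  have hset : {T : Finset α | T.card = 3 ∧ ∀ l ∈ L, (l ∩ T).card ≤ 2} = (Good : Set (Finset α)) := by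
    ext T
    simp only [Set.mem_ofPred_eq, mem_coe, hGmem]
  rw [hset, Set.ncard_coe_finset]
  have key := Finset.sum_card_bipartiteAbove_eq_sum_card_bipartiteBelow (s := P2) (t := Good)
    (fun e T => e ⊆ T)
  have hR : ∀ T ∈ Good, (Finset.bipartiteBelow (fun e T => e ⊆ T) P2 T).card = 3 := by
    intro T hT
    have hT3 : T.card = 3 := ((hGmem T).mp hT).1
    have h1 : Finset.bipartiteBelow (fun e T => e ⊆ T) P2 T = powersetCard 2 T := by
      ext e
      simp only [Finset.bipartiteBelow, mem_filter, mem_powersetCard, hPmem]
      exact and_comm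
    rw [h1, card_powersetCard, hT3]
    rfl
  have hLft : ∀ e ∈ P2, (Finset.bipartiteAbove (fun e T => e ⊆ T) Good e).card = 16 := by
    intro e he
    have he2 : e.card = 2 := (hPmem e).mp he
    obtain ⟨l, ⟨hlL, hel⟩, hluniq⟩ := hLu e he2
    have hl5 : l.card = 5 := hL5 l hlL
    have h1 : Finset.bipartiteAbove (fun e T => e ⊆ T) Good e
        = (univ \ l).image (fun r => insert r e) := by
      ext T
      simp only [Finset.bipartiteAbove, mem_filter, mem_image, mem_sdiff, mem_univ, true_and]
      constructor
      · rintro ⟨hTG, heT⟩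
        have hT3 : T.card = 3 := ((hGmem T).mp hTG).1
        have hTgood := ((hGmem T).mp hTG).2
        have hc : (T \ e).card = 1 := by
          rw [card_sdiff_of_subset heT]
          omega
        obtain ⟨r, hr⟩ := card_eq_one.mp hc
        have hrT : r ∈ T ∧ r ∉ e := by
          have h0 : r ∈ T \ e := by rw [hr]; exact mem_singleton_self r
          exact mem_sdiff.mp h0
        have hx : ∀ x, x ∈ T → x ∉ e → x = r := by
          intro x hxT hxe
          have h0 : x ∈ T \ e := mem_sdiff.mpr ⟨hxT, hxe⟩
          rw [hr, mem_singleton] at h0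
          exact h0
        refine ⟨r, ?_, ?_⟩
        · intro hrl
          have hTl : T ⊆ l := by
            intro x hxT
            by_cases hxe : x ∈ e
            · exact hel hxe
            · rw [hx x hxT hxe]; exact hrl
          have h2 := hTgood l hlL
          rw [inter_eq_right.mpr hTl] at h2
          omega
        · ext x
          constructor
          · intro hxi
            rcases mem_insert.mp hxi with h0 | h0
            · rw [h0]; exact hrT.1
            · exact heT h0
          · intro hxT
            by_cases hxe : x ∈ e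
            · exact mem_insert_of_mem hxe
            · rw [hx x hxT hxe]; exact mem_insert_self _ _
      · rintro ⟨r, hrl, rfl⟩
        have hre : r ∉ e := fun h => hrl (hel h)
        have hcard3 : (insert r e).card = 3 := by rw [card_insert_of_notMem hre, he2]
        refine ⟨(hGmem _).mpr ⟨hcard3, ?_⟩, subset_insert _ _⟩
        intro l' hl'
        by_contra hcon
        have hsub : insert r e ⊆ l' := by
          have h3 : l' ∩ insert r e ⊆ insert r e := inter_subset_right
          have h4 : l' ∩ insert r e = insert r e := eq_of_subset_of_card_le h3 (by omega)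
          rw [← h4]; exact inter_subset_left
        have hel' : e ⊆ l' := (subset_insert r e).trans hsub
        have h5 : l' = l := hluniq l' ⟨hl', hel'⟩
        rw [h5] at hsub
        exact hrl (hsub (mem_insert_self _ _))
    have hinj : Set.InjOn (fun r => insert r e) ((univ \ l : Finset α) : Set α) := by
      intro r hr r' hr' h
      have hr1 : r ∉ l := by simpa using hr
      have hre : r ∉ e := fun h0 => hr1 (hel h0)
      have h' : insert r e = insert r' e := h
      have h6 : r ∈ insert r' e := by rw [← h']; exact mem_insert_self _ _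
      rcases mem_insert.mp h6 with h7 | h7
      · exact h7
      · exact absurd h7 hre
    rw [h1, card_image_of_injOn hinj, card_sdiff_of_subset (subset_univ l), card_univ, hα, hl5]
  have h1 : ∑ e ∈ P2, (Finset.bipartiteAbove (fun e T => e ⊆ T) Good e).card = P2.card * 16 := by
    rw [Finset.sum_congr rfl hLft]; simp
  have h2 : ∑ T ∈ Good, (Finset.bipartiteBelow (fun e T => e ⊆ T) P2 T).card = Good.card * 3 := by
    rw [Finset.sum_congr rfl hR]; simp
  rw [h1, h2, hP2card] at key
  omega

end Cfsg.Agent.Lib.lead.Plane4A
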