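import Mathlib
import Cfsg.Agent.S0065

namespace Cfsg.Agent.Lib.lead.K4237f

open Subgroup

section
variable {P : Type*} [Group P]

theorem pow_mul_aux (y e c : P) (h : e * y = c * y * e) (hc : ∀ g : P, c * g = g * c) (n : ℕ) :
    e ^ n * y = c ^ n * y * e ^ n := by
  induction n with
  | zero => simp
  | succ n ih =>
    have h1 := hc (e ^ n)
    calc e ^ (n + 1) * y = e ^ n * (e * y) := by rw [pow_succ, mul_assoc]
      _ = e ^ n * (c * y * e) := by rw [h]
      _ = (e ^ n * c) * y * e := by simp only [mul_assoc]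
      _ = (c * e ^ n) * y * e := by rw [h1]
      _ = c * (e ^ n * y) * e := by simp only [mul_assoc]
      _ = c * (c ^ n * y * e ^ n) * e := by rw [ih]
      _ = c ^ (n + 1) * y * e ^ (n + 1) := by rw [pow_succ' c n, pow_succ e n]; simp only [mul_assoc]

theorem mul_pow_aux (y e c : P) (h : e * y = c * y * e) (hc : ∀ g : P, c * g = g * c) (n : ℕ) :
    (y * e) ^ n = y ^ n * e ^ n * c ^ (n.choose 2) := by
  have hck : ∀ (k : ℕ) (g : P), c ^ k * g = g * c ^ k :=
    fun k g => ((show Commute c g from hc g).pow_left k).eq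
  induction n with
  | zero => simp
  | succ n ih =>
    have h1 := pow_mul_aux y e c h hc n
    have h2 : (n + 1).choose 2 = n.choose 2 + n := by
      rw [Nat.choose_succ_succ, Nat.choose_one_right]; ring
    have h3 := hck (n.choose 2) (y * e)
    have h4 := hck n (y ^ n)
    have h5 := hck n (y ^ n * y * (e ^ n * e) * c ^ (n.choose 2))
    calc (y * e) ^ (n + 1) = (y * e) ^ n * (y * e) := pow_succ _ _
      _ = y ^ n * e ^ n * c ^ (n.choose 2) * (y * e) := by rw [ih]
      _ = y ^ n * e ^ n * (c ^ (n.choose 2) * (y * e)) := by simp only [mul_assoc]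
      _ = y ^ n * e ^ n * ((y * e) * c ^ (n.choose 2)) := by rw [h3]
      _ = y ^ n * (e ^ n * y) * e * c ^ (n.choose 2) := by simp only [mul_assoc]
      _ = y ^ n * (c ^ n * y * e ^ n) * e * c ^ (n.choose 2) := by rw [h1]
      _ = (y ^ n * c ^ n) * (y * (e ^ n * e) * c ^ (n.choose 2)) := by simp only [mul_assoc]
      _ = (c ^ n * y ^ n) * (y * (e ^ n * e) * c ^ (n.choose 2)) := by rw [h4]
      _ = c ^ n * (y ^ n * y * (e ^ n * e) * c ^ (n.choose 2)) := by simp only [mul_assoc]
      _ = (y ^ n * y * (e ^ n * e) * c ^ (n.choose 2)) * c ^ n := h5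
      _ = y ^ (n + 1) * e ^ (n + 1) * c ^ ((n + 1).choose 2) := by
          rw [h2, pow_succ y n, pow_succ e n, pow_add]; simp only [mul_assoc]

theorem exists_mem_ucs2 {p : ℕ} [Fact p.Prime] [Finite P] (hP : IsPGroup p P) (E : Subgroup P)
    [E.Normal] (hE : ¬ E ≤ center P) :
    ∃ x ∈ E, x ∉ center P ∧ x ∈ Subgroup.upperCentralSeries P 2 := by
  haveI : Group.IsNilpotent (P ⧸ center P) := (hP.to_quotient (center P)).isNilpotent
  haveI hnorm : (E.map (QuotientGroup.mk' (center P))).Normal :=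
    Subgroup.Normal.map inferInstance _ (QuotientGroup.mk'_surjective _)
  have hne : E.map (QuotientGroup.mk' (center P)) ≠ ⊥ := by
    intro h
    apply hE
    have h1 := (Subgroup.map_eq_bot_iff _).mp h
    rwa [QuotientGroup.ker_mk'] at h1
  have h2 := Cfsg.Agent.S0065.normal_inf_center_ne_bot _ hne
  obtain ⟨⟨w, hw⟩, hw1⟩ := (Subgroup.ne_bot_iff_exists_ne_one).mp h2
  have hw1' : w ≠ 1 := fun e => hw1 (Subtype.ext e)
  obtain ⟨x, hxE, hxw⟩ := Subgroup.mem_map.mp hw.1
  refine ⟨x, hxE, ?_, ?_⟩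
  · intro hx
    apply hw1'
    rw [← hxw]
    exact (QuotientGroup.eq_one_iff x).mpr hx
  · rw [show (2 : ℕ) = 1 + 1 from rfl, Subgroup.mem_upperCentralSeries_succ_iff]
    intro y
    rw [Subgroup.upperCentralSeries_one, commutatorElement_def, ← QuotientGroup.eq_one_iff]
    have h3 := Subgroup.mem_center_iff.mp hw.2 (QuotientGroup.mk' (center P) y)
    have h4 : ((x * y * x⁻¹ * y⁻¹ : P) : P ⧸ center P)
        = w * (QuotientGroup.mk' (center P) y) * w⁻¹ * (QuotientGroup.mk' (center P) y)⁻¹ := by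
      show QuotientGroup.mk' (center P) (x * y * x⁻¹ * y⁻¹) = _
      rw [map_mul, map_mul, map_mul, map_inv, map_inv, hxw]
    rw [h4, ← h3]; group

/-- In a finite `p`-group with `p` odd, multiplying by an element of a noncyclic normal subgroup of
order `p ^ 2` does not change `p`-th powers. -/
theorem mul_pow_eq {P : Type*} [Group P] [Finite P] (p : ℕ) (hp : p.Prime) (hp2 : p ≠ 2)
    (hP : IsPGroup p P) (E : Subgroup P) [hEn : E.Normal] (hE : Nat.card E = p ^ 2)
    (hEc : ¬ IsCyclic E) (y e : P) (he : e ∈ E) : (y * e) ^ p = y ^ p := by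
  haveI : Fact p.Prime := ⟨hp⟩
  haveI : Group.IsNilpotent P := hP.isNilpotent
  have hexp : ∀ g ∈ E, g ^ p = 1 := by
    intro g hg
    have h1 : orderOf (⟨g, hg⟩ : E) ∣ p ^ 2 := by rw [← hE]; exact orderOf_dvd_natCard _
    obtain ⟨j, hj, hjo⟩ := (Nat.dvd_prime_pow hp).mp h1
    have hj1 : j ≤ 1 := by
      by_contra hcon
      have hj2 : j = 2 := by omega
      apply hEc
      apply isCyclic_of_orderOf_eq_card (⟨g, hg⟩ : E)
      rw [hjo, hj2, hE]
    have h2 : orderOf (⟨g, hg⟩ : E) ∣ p := by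
      rw [hjo]
      calc p ^ j ∣ p ^ 1 := pow_dvd_pow p hj1
        _ = p := pow_one p
    have h3 : (⟨g, hg⟩ : E) ^ p = 1 := orderOf_dvd_iff_pow_eq_one.mp h2
    have h4 := congrArg Subtype.val h3
    simpa using h4
  have h12 : Subgroup.upperCentralSeries P 1 ≤ Subgroup.upperCentralSeries P 2 :=
    Subgroup.upperCentralSeries_mono P (show (1 : ℕ) ≤ 2 by norm_num)
  have hZ2 : E ≤ Subgroup.upperCentralSeries P 2 := by
    by_cases hEZ : E ≤ center P
    · intro g hg
      have h := hEZ hg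
      rw [← Subgroup.upperCentralSeries_one] at h
      exact h12 h
    · obtain ⟨x, hxE, hxZ, hx2⟩ := exists_mem_ucs2 hP E hEZ
      have hEne : E ≠ ⊥ := by
        intro h
        rw [h, Subgroup.card_bot] at hE
        have h2 : 1 < p ^ 2 := Nat.one_lt_pow (by norm_num) hp.one_lt
        omega
      have hKne := Cfsg.Agent.S0065.normal_inf_center_ne_bot E hEne
      have hKM : E ⊓ center P ≤ E ⊓ Subgroup.upperCentralSeries P 2 := by
        intro g hg
        refine ⟨hg.1, ?_⟩
        have h := hg.2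
        rw [← Subgroup.upperCentralSeries_one] at h
        exact h12 h
      have hMdvd : Nat.card (E ⊓ Subgroup.upperCentralSeries P 2 : Subgroup P) ∣ p ^ 2 := by
        rw [← hE]; exact Subgroup.card_dvd_of_le inf_le_left
      have hKdvd : Nat.card (E ⊓ center P : Subgroup P)
          ∣ Nat.card (E ⊓ Subgroup.upperCentralSeries P 2 : Subgroup P) := Subgroup.card_dvd_of_le hKM
      obtain ⟨b, hb, hMb⟩ := (Nat.dvd_prime_pow hp).mp hMdvd
      obtain ⟨a, ha, hKa⟩ := (Nat.dvd_prime_pow hp).mp (hKdvd.trans hMdvd)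
      have hab : a ≤ b := by
        rw [hKa, hMb] at hKdvd
        exact (Nat.pow_dvd_pow_iff_le_right hp.one_lt).mp hKdvd
      have ha0 : a ≠ 0 := by
        rintro rfl
        rw [pow_zero] at hKa
        exact hKne (Subgroup.card_eq_one.mp hKa)
      have hab' : a ≠ b := by
        intro h
        have h1 : E ⊓ center P = E ⊓ Subgroup.upperCentralSeries P 2 :=
          Subgroup.eq_of_le_of_card_ge hKM (by rw [hKa, hMb, h])
        apply hxZ
        have h2 : x ∈ E ⊓ Subgroup.upperCentralSeries P 2 := ⟨hxE, hx2⟩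
        rw [← h1] at h2
        exact h2.2
      have hb2 : b = 2 := by omega
      have h3 : E ⊓ Subgroup.upperCentralSeries P 2 = E :=
        Subgroup.eq_of_le_of_card_ge inf_le_left (by rw [hMb, hb2, hE])
      rw [← h3]; exact inf_le_right
  obtain ⟨c, hc⟩ : ∃ c, c = e * y * e⁻¹ * y⁻¹ := ⟨_, rfl⟩
  have hcZ : c ∈ center P := by
    have h1 := hZ2 he
    rw [show (2 : ℕ) = 1 + 1 from rfl, Subgroup.mem_upperCentralSeries_succ_iff] at h1
    have h2 := h1 y
    rw [Subgroup.upperCentralSeries_one, commutatorElement_def] at h2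
    rw [hc]; exact h2
  have hcE : c ∈ E := by
    have h1 : y * e⁻¹ * y⁻¹ ∈ E := hEn.conj_mem e⁻¹ (inv_mem he) y
    have h2 : c = e * (y * e⁻¹ * y⁻¹) := by rw [hc]; group
    rw [h2]; exact mul_mem he h1
  have hcomm : ∀ g : P, c * g = g * c := fun g => (Subgroup.mem_center_iff.mp hcZ g).symm
  have hrel : e * y = c * y * e := by rw [hc]; group
  have hmain := mul_pow_aux y e c hrel hcomm p
  have hdvd : p ∣ p.choose 2 :=
    hp.dvd_choose_self (by norm_num) (by have := hp.two_le; omega)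
  obtain ⟨m, hm⟩ := hdvd
  rw [hmain, hexp e he, hm, pow_mul, hexp c hcE, one_pow, mul_one, mul_one]

end

end Cfsg.Agent.Lib.lead.K4237f
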