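import Mathlib
import Cfsg.Agent.S0065
import Cfsg.Agent.S0126
import Cfsg.Agent.Lib.lead.K4237f
import Cfsg.Agent.Lib.helper5.K4237b
import Cfsg.Agent.Lib.helper25.K4237d

namespace Cfsg.Agent.Lib.lead.K4157c

open Subgroup

theorem dvd_card_of_mul_right {G : Type*} [Group G] [Finite G] (H : Subgroup G) (S : G → Prop)
    (hS : ∀ x, S x → ∀ a ∈ H, S (x * a)) : Nat.card H ∣ Nat.card {x : G // S x} := by
  have h1 : Nat.card H ∣ Nat.card {x : G // S x⁻¹} := by
    refine Cfsg.Agent.Lib.helper25.K4237d.dvd_card_of_forall_dvd (G := H) (X := G)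
      (fun x => S x⁻¹) ?_ (Nat.card H) ?_
    · intro g x hx
      have h2 : (g • x)⁻¹ = x⁻¹ * ((g⁻¹ : H) : G) := by
        rw [Subgroup.smul_def, smul_eq_mul, mul_inv_rev]; rfl
      show S (g • x)⁻¹
      rw [h2]
      exact hS _ hx _ (g⁻¹).2
    · intro x _
      have h3 : MulAction.stabilizer H x = ⊥ := by
        rw [eq_bot_iff]
        intro g hg
        rw [MulAction.mem_stabilizer_iff, Subgroup.smul_def, smul_eq_mul] at hg
        rw [Subgroup.mem_bot]
        apply Subtype.ext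
        exact mul_right_cancel (hg.trans (one_mul x).symm)
      rw [h3, Subgroup.card_bot, Nat.div_one]
  rwa [Nat.card_congr ((Equiv.inv G).subtypeEquiv (fun x => by simp) :
    {x : G // S x⁻¹} ≃ {x : G // S x})] at h1

theorem card_or {α : Type*} [Finite α] (p q : α → Prop) (h : ∀ x, p x → q x → False) :
    Nat.card {x : α // p x ∨ q x} = Nat.card {x : α // p x} + Nat.card {x : α // q x} := by
  classical
  haveI := Fintype.ofFinite α
  rw [Nat.card_eq_fintype_card, Nat.card_eq_fintype_card, Nat.card_eq_fintype_card,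
    Fintype.card_subtype, Fintype.card_subtype, Fintype.card_subtype, Finset.filter_or]
  apply Finset.card_union_of_disjoint
  rw [Finset.disjoint_filter]
  intro x _ hp hq
  exact h x hp hq

section
variable {P : Type*} [Group P] [Finite P]

theorem exp_two (E : Subgroup P) (hE2 : Nat.card E = 2 ^ 2) (hEc : ¬ IsCyclic E) :
    ∀ a ∈ E, a * a = 1 := by
  intro g hg
  have h1 : orderOf (⟨g, hg⟩ : E) ∣ 2 ^ 2 := by rw [← hE2]; exact orderOf_dvd_natCard _
  obtain ⟨j, hj, hjo⟩ := (Nat.dvd_prime_pow Nat.prime_two).mp h1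
  have hj1 : j ≤ 1 := by
    by_contra hcon
    have hj2 : j = 2 := by omega
    apply hEc
    apply isCyclic_of_orderOf_eq_card (⟨g, hg⟩ : E)
    rw [hjo, hj2, hE2]
  have h2 : orderOf (⟨g, hg⟩ : E) ∣ 2 := by
    rw [hjo]
    calc 2 ^ j ∣ 2 ^ 1 := pow_dvd_pow 2 hj1
      _ = 2 := pow_one 2
  have h3 : (⟨g, hg⟩ : E) ^ 2 = 1 := orderOf_dvd_iff_pow_eq_one.mp h2
  have h4 := congrArg Subtype.val h3
  rw [← pow_two]
  simpa using h4

theorem comm_E (E : Subgroup P) (hE2 : Nat.card E = 2 ^ 2) :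
    ∀ a ∈ E, ∀ b ∈ E, a * b = b * a := by
  haveI : Fact (Nat.Prime 2) := ⟨Nat.prime_two⟩
  intro a ha b hb
  have h := IsPGroup.commutative_of_card_eq_prime_sq hE2 (⟨a, ha⟩ : E) ⟨b, hb⟩
  exact congrArg Subtype.val h

theorem mem_Z0_of_comm (hP : IsPGroup 2 P) (E : Subgroup P) [E.Normal] (hE2 : Nat.card E = 2 ^ 2)
    (x : P) (hx : x ∉ centralizer (E : Set P)) :
    Nat.card (E ⊓ center P : Subgroup P) = 2 ∧ ∀ a ∈ E, a * x = x * a → a ∈ center P := by
  haveI : Fact (Nat.Prime 2) := ⟨Nat.prime_two⟩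
  haveI : Group.IsNilpotent P := hP.isNilpotent
  have hEne : E ≠ ⊥ := by
    intro h
    rw [h, Subgroup.card_bot] at hE2
    norm_num at hE2
  have hZne := Cfsg.Agent.S0065.normal_inf_center_ne_bot E hEne
  have hZK : E ⊓ center P ≤ E ⊓ centralizer ({x} : Set P) := by
    intro g hg
    obtain ⟨hgE, hgZ⟩ := Subgroup.mem_inf.mp hg
    refine Subgroup.mem_inf.mpr ⟨hgE, ?_⟩
    rw [Subgroup.mem_centralizer_iff]
    intro h hh
    rw [Set.mem_singleton_iff] at hh
    rw [hh]
    exact Subgroup.mem_center_iff.mp hgZ x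
  have hKne : E ⊓ centralizer ({x} : Set P) ≠ E := by
    intro h
    apply hx
    rw [Subgroup.mem_centralizer_iff]
    intro a ha
    have ha' : a ∈ E ⊓ centralizer ({x} : Set P) := by rw [h]; exact ha
    have h2 := Subgroup.mem_centralizer_iff.mp (Subgroup.mem_inf.mp ha').2 x (Set.mem_singleton x)
    exact h2.symm
  have hKdvd : Nat.card (E ⊓ centralizer ({x} : Set P) : Subgroup P) ∣ 2 ^ 2 := by
    rw [← hE2]; exact Subgroup.card_dvd_of_le inf_le_left
  have hZdvd : Nat.card (E ⊓ center P : Subgroup P)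
      ∣ Nat.card (E ⊓ centralizer ({x} : Set P) : Subgroup P) := Subgroup.card_dvd_of_le hZK
  obtain ⟨i, hi, hKi⟩ := (Nat.dvd_prime_pow Nat.prime_two).mp hKdvd
  obtain ⟨j, hj, hZj⟩ := (Nat.dvd_prime_pow Nat.prime_two).mp (hZdvd.trans hKdvd)
  have hji : j ≤ i := by
    rw [hZj, hKi] at hZdvd
    exact (Nat.pow_dvd_pow_iff_le_right (by norm_num)).mp hZdvd
  have hj0 : j ≠ 0 := by
    rintro rfl
    rw [pow_zero] at hZj
    exact hZne (Subgroup.card_eq_one.mp hZj)
  have hi2 : i ≠ 2 := by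
    rintro rfl
    exact hKne (Subgroup.eq_of_le_of_card_ge inf_le_left (by rw [hKi, hE2]))
  have hi1 : i = 1 := by omega
  have hj1 : j = 1 := by omega
  have hZK' : E ⊓ center P = E ⊓ centralizer ({x} : Set P) :=
    Subgroup.eq_of_le_of_card_ge hZK (by rw [hKi, hZj, hi1, hj1])
  refine ⟨by rw [hZj, hj1, pow_one], ?_⟩
  intro a ha hax
  have h3 : a ∈ E ⊓ centralizer ({x} : Set P) := by
    refine Subgroup.mem_inf.mpr ⟨ha, ?_⟩
    rw [Subgroup.mem_centralizer_iff]
    intro h hh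
    rw [Set.mem_singleton_iff] at hh
    rw [hh]
    exact hax.symm
  rw [← hZK'] at h3
  exact (Subgroup.mem_inf.mp h3).2

theorem mul_pow_four (hP : IsPGroup 2 P) (E : Subgroup P) [hEn : E.Normal] (hE : Nat.card E = 4)
    (hEc : ¬ IsCyclic E) (x a : P) (ha : a ∈ E) : (x * a) ^ 4 = x ^ 4 := by
  haveI : Fact (Nat.Prime 2) := ⟨Nat.prime_two⟩
  have hE2 : Nat.card E = 2 ^ 2 := hE.trans (by norm_num)
  have hexp := exp_two E hE2 hEc
  obtain ⟨c, hc⟩ : ∃ c, c = a * x * a⁻¹ * x⁻¹ := ⟨_, rfl⟩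
  have hcZ : c ∈ center P := by
    rw [hc]; exact Cfsg.Agent.Lib.helper5.k4_comm_central hP E hE2 a x ha
  have hcE : c ∈ E := by
    have h1 : x * a⁻¹ * x⁻¹ ∈ E := hEn.conj_mem a⁻¹ (inv_mem ha) x
    have h2 : c = a * (x * a⁻¹ * x⁻¹) := by rw [hc]; group
    rw [h2]; exact mul_mem ha h1
  have hcomm : ∀ g : P, c * g = g * c := fun g => (Subgroup.mem_center_iff.mp hcZ g).symm
  have hrel : a * x = c * x * a := by rw [hc]; group
  have hmain := Cfsg.Agent.Lib.lead.K4237f.mul_pow_aux x a c hrel hcomm 4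
  have h6 : Nat.choose 4 2 = 6 := by decide
  have ha4 : a ^ 4 = 1 := by
    have h := hexp a ha
    calc a ^ 4 = a ^ (2 * 2) := by norm_num
      _ = (a ^ 2) ^ 2 := pow_mul a 2 2
      _ = 1 := by rw [pow_two a, h, one_pow]
  have hc6 : c ^ 6 = 1 := by
    have h := hexp c hcE
    calc c ^ 6 = c ^ (2 * 3) := by norm_num
      _ = (c ^ 2) ^ 3 := pow_mul c 2 3
      _ = 1 := by rw [pow_two c, h, one_pow]
  rw [hmain, h6, ha4, hc6, mul_one, mul_one]

theorem card_A (E : Subgroup P) (hE : Nat.card E = 4) (hEc : ¬ IsCyclic E) :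
    4 ∣ Nat.card {x : P // x * x = 1 ∧ x ∈ centralizer (E : Set P)} := by
  have hE2 : Nat.card E = 2 ^ 2 := hE.trans (by norm_num)
  have hexp := exp_two E hE2 hEc
  have hcommE := comm_E E hE2
  have hEC : E ≤ centralizer (E : Set P) := by
    intro a ha
    rw [Subgroup.mem_centralizer_iff]
    intro b hb
    exact hcommE b hb a ha
  have h := dvd_card_of_mul_right E (fun x => x * x = 1 ∧ x ∈ centralizer (E : Set P)) (by
    rintro x ⟨hx1, hxC⟩ a ha
    have hax : a * x = x * a := (Subgroup.mem_centralizer_iff.mp hxC) a ha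
    refine ⟨?_, mul_mem hxC (hEC ha)⟩
    calc (x * a) * (x * a) = x * (a * x) * a := by group
      _ = x * (x * a) * a := by rw [hax]
      _ = (x * x) * (a * a) := by group
      _ = 1 := by rw [hx1, hexp a ha, one_mul])
  rwa [hE] at h

theorem card_D (hP : IsPGroup 2 P) (E : Subgroup P) [hEn : E.Normal] (hE : Nat.card E = 4)
    (hEc : ¬ IsCyclic E) : 4 ∣ Nat.card {x : P // x ^ 4 = 1} := by
  have h := dvd_card_of_mul_right E (fun x => x ^ 4 = 1) (by
    intro x hx a ha
    show (x * a) ^ 4 = 1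
    rw [mul_pow_four hP E hE hEc x a ha]; exact hx)
  rwa [hE] at h

theorem exists_Et (hP : IsPGroup 2 P) (E : Subgroup P) [hEn : E.Normal] (hE : Nat.card E = 4)
    (hEC : E ≤ centralizer (E : Set P)) (hCE : centralizer (E : Set P) ≠ E) :
    ∃ Et : Subgroup P, Nat.card Et = 8 ∧ Et ≤ centralizer (E : Set P) ∧
      (∀ a ∈ Et, ∀ x : P, x⁻¹ * a * x * a⁻¹ ∈ E) ∧ (∀ a ∈ Et, a * a ∈ E) := by
  haveI : Fact (Nat.Prime 2) := ⟨Nat.prime_two⟩
  haveI : Group.IsNilpotent (P ⧸ E) := (hP.to_quotient E).isNilpotent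
  haveI hCn : (centralizer (E : Set P)).Normal := inferInstance
  haveI hC'n : ((centralizer (E : Set P)).map (QuotientGroup.mk' E)).Normal :=
    Subgroup.Normal.map hCn _ (QuotientGroup.mk'_surjective _)
  have hC'ne : (centralizer (E : Set P)).map (QuotientGroup.mk' E) ≠ ⊥ := by
    intro h
    apply hCE
    have h1 := (Subgroup.map_eq_bot_iff _).mp h
    rw [QuotientGroup.ker_mk'] at h1
    exact le_antisymm h1 hEC
  have hM := Cfsg.Agent.S0065.normal_inf_center_ne_bot _ hC'ne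
  have hMp : IsPGroup 2 ((centralizer (E : Set P)).map (QuotientGroup.mk' E) ⊓ center (P ⧸ E) :
      Subgroup (P ⧸ E)) := (hP.to_quotient E).to_subgroup _
  have h2dvd : 2 ∣ Nat.card ((centralizer (E : Set P)).map (QuotientGroup.mk' E) ⊓ center (P ⧸ E) :
      Subgroup (P ⧸ E)) := by
    rcases hMp.card_eq_or_dvd with h | h
    · exact absurd (Subgroup.card_eq_one.mp h) hM
    · exact h
  obtain ⟨w, hw⟩ := exists_prime_orderOf_dvd_card' 2 h2dvd
  have hwo : orderOf (w : P ⧸ E) = 2 := by rw [Subgroup.orderOf_coe]; exact hw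
  have hwC : (w : P ⧸ E) ∈ (centralizer (E : Set P)).map (QuotientGroup.mk' E) :=
    (Subgroup.mem_inf.mp w.2).1
  have hwZ : (w : P ⧸ E) ∈ center (P ⧸ E) := (Subgroup.mem_inf.mp w.2).2
  have hww : (w : P ⧸ E) * (w : P ⧸ E) = 1 := by
    have h := pow_orderOf_eq_one (w : P ⧸ E)
    rwa [hwo, pow_two] at h
  refine ⟨(zpowers (w : P ⧸ E)).comap (QuotientGroup.mk' E), ?_, ?_, ?_, ?_⟩
  · rw [Cfsg.Agent.S0126.card_comap_mk, Nat.card_zpowers, hwo, hE]
  · intro a ha
    have ha' : QuotientGroup.mk' E a ∈ zpowers (w : P ⧸ E) := ha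
    have h1 : QuotientGroup.mk' E a ∈ (centralizer (E : Set P)).map (QuotientGroup.mk' E) :=
      (zpowers_le.mpr hwC) ha'
    obtain ⟨c, hcC, hca⟩ := Subgroup.mem_map.mp h1
    have h2 : c⁻¹ * a ∈ E := QuotientGroup.eq.mp hca
    have h3 : a = c * (c⁻¹ * a) := by group
    rw [h3]
    exact mul_mem hcC (hEC h2)
  · intro a ha x
    have ha' : QuotientGroup.mk' E a ∈ zpowers (w : P ⧸ E) := ha
    have h1 : QuotientGroup.mk' E a ∈ center (P ⧸ E) := (zpowers_le.mpr hwZ) ha'
    have h2 := Subgroup.mem_center_iff.mp h1 (QuotientGroup.mk' E x)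
    rw [← QuotientGroup.eq_one_iff]
    show QuotientGroup.mk' E (x⁻¹ * a * x * a⁻¹) = 1
    rw [map_mul, map_mul, map_mul, map_inv, map_inv]
    calc (QuotientGroup.mk' E x)⁻¹ * QuotientGroup.mk' E a * QuotientGroup.mk' E x
          * (QuotientGroup.mk' E a)⁻¹
        = (QuotientGroup.mk' E x)⁻¹ * (QuotientGroup.mk' E x * QuotientGroup.mk' E a)
          * (QuotientGroup.mk' E a)⁻¹ := by rw [h2]; group
      _ = 1 := by group
  · intro a ha
    have ha' : QuotientGroup.mk' E a ∈ zpowers (w : P ⧸ E) := ha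
    obtain ⟨k, hk⟩ := Subgroup.mem_zpowers_iff.mp ha'
    rw [← QuotientGroup.eq_one_iff]
    show QuotientGroup.mk' E (a * a) = 1
    rw [map_mul, ← hk, ← (Commute.refl (w : P ⧸ E)).mul_zpow, hww, one_zpow]

theorem card_B (hP : IsPGroup 2 P) (E : Subgroup P) [hEn : E.Normal] (hE : Nat.card E = 4)
    (hEc : ¬ IsCyclic E)
    (hC : centralizer (E : Set P) ≠ E ∨ centralizer (E : Set P) = ⊤) :
    4 ∣ Nat.card {x : P // x * x = 1 ∧ x ∉ centralizer (E : Set P)} := by
  classical
  haveI : Fact (Nat.Prime 2) := ⟨Nat.prime_two⟩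
  have hE2 : Nat.card E = 2 ^ 2 := hE.trans (by norm_num)
  have hexp := exp_two E hE2 hEc
  have hcommE := comm_E E hE2
  have hEC : E ≤ centralizer (E : Set P) := by
    intro a ha
    rw [Subgroup.mem_centralizer_iff]
    intro b hb
    exact hcommE b hb a ha
  by_cases hCtop : centralizer (E : Set P) = ⊤
  · haveI : IsEmpty {x : P // x * x = 1 ∧ x ∉ centralizer (E : Set P)} :=
      ⟨fun x => x.2.2 ((SetLike.ext_iff.mp hCtop (x : P)).mpr (Subgroup.mem_top _))⟩
    rw [Nat.card_of_isEmpty]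
    exact dvd_zero 4
  · have hCE : centralizer (E : Set P) ≠ E := hC.resolve_right hCtop
    obtain ⟨x₀, hx₀⟩ : ∃ x₀ : P, x₀ ∉ centralizer (E : Set P) := by
      by_contra hcon
      push_neg at hcon
      exact hCtop (eq_top_iff.mpr fun y _ => hcon y)
    have hZ0card := (mem_Z0_of_comm hP E hE2 x₀ hx₀).1
    have hZ0 : ∀ x : P, x ∉ centralizer (E : Set P) → ∀ a ∈ E, a * x = x * a → a ∈ center P :=
      fun x hx => (mem_Z0_of_comm hP E hE2 x hx).2
    obtain ⟨⟨z, hz⟩, hz1, hzu⟩ :=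
      (Nat.card_eq_two_iff' (1 : (E ⊓ center P : Subgroup P))).mp hZ0card
    have hz1' : z ≠ 1 := fun h => hz1 (Subtype.ext h)
    have hzE : z ∈ E := (Subgroup.mem_inf.mp hz).1
    have hzZ : z ∈ center P := (Subgroup.mem_inf.mp hz).2
    have hzall : ∀ y ∈ E, y ∈ center P → y = 1 ∨ y = z := by
      intro y hyE hyZ
      by_cases hy1 : y = 1
      · exact Or.inl hy1
      · right
        have h := hzu ⟨y, Subgroup.mem_inf.mpr ⟨hyE, hyZ⟩⟩ (fun h => hy1 (congrArg Subtype.val h))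
        exact congrArg Subtype.val h
    obtain ⟨e₀, he₀E, he₀Z⟩ : ∃ e₀ ∈ E, e₀ ∉ center P := by
      by_contra hcon
      push_neg at hcon
      apply hx₀
      rw [Subgroup.mem_centralizer_iff]
      intro a ha
      exact (Subgroup.mem_center_iff.mp (hcon a ha) x₀).symm
    have he₀inv : e₀⁻¹ = e₀ := inv_eq_of_mul_eq_one_left (hexp e₀ he₀E)
    have he₀C : e₀ ∈ centralizer (E : Set P) := hEC he₀E
    have hnotC : ∀ x : P, x ∉ centralizer (E : Set P) → x * e₀ ∉ centralizer (E : Set P) := by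
      intro x hx h
      apply hx
      have h1 := mul_mem h (inv_mem he₀C)
      rwa [mul_inv_cancel_right] at h1
    have hkey : ∀ x : P, x ∉ centralizer (E : Set P) → x * x ∈ center P →
        (x * e₀) * (x * e₀) = (x * x) * z := by
      intro x hx hxx
      obtain ⟨y, hy⟩ : ∃ y, y = x⁻¹ * e₀ * x * e₀ := ⟨_, rfl⟩
      have hconj : x⁻¹ * e₀ * x ∈ E := by
        have h := hEn.conj_mem e₀ he₀E x⁻¹
        rwa [inv_inv] at h
      have hyE : y ∈ E := by rw [hy]; exact mul_mem hconj he₀E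
      have h2 : e₀ * (x * x) = (x * x) * e₀ := Subgroup.mem_center_iff.mp hxx e₀
      have h1 : x⁻¹ * y * x = y := by
        rw [hy]
        calc x⁻¹ * (x⁻¹ * e₀ * x * e₀) * x
            = x⁻¹ * x⁻¹ * (e₀ * (x * x)) * x⁻¹ * e₀ * x := by group
          _ = x⁻¹ * x⁻¹ * ((x * x) * e₀) * x⁻¹ * e₀ * x := by rw [h2]
          _ = e₀ * (x⁻¹ * e₀ * x) := by group
          _ = x⁻¹ * e₀ * x * e₀ := hcommE e₀ he₀E _ hconj
      have hyx : y * x = x * y := by
        calc y * x = x * (x⁻¹ * y * x) := by group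
          _ = x * y := by rw [h1]
      have hyZ : y ∈ center P := hZ0 x hx y hyE hyx
      have hy1 : y ≠ 1 := by
        intro h
        rw [hy] at h
        apply he₀Z
        apply hZ0 x hx e₀ he₀E
        calc e₀ * x = x * (x⁻¹ * e₀ * x * e₀) * e₀⁻¹ := by group
          _ = x * e₀ := by rw [h, mul_one, he₀inv]
      have hyz : y = z := (hzall y hyE hyZ).resolve_left hy1
      calc (x * e₀) * (x * e₀) = (x * x) * (x⁻¹ * e₀ * x * e₀) := by group
        _ = (x * x) * z := by rw [← hy, hyz]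
    obtain ⟨Et, hEt8, hEtC, hEtcomm, hEtsq⟩ := exists_Et hP E hE hEC hCE
    have hW : 8 ∣ Nat.card {x : P // x ∉ centralizer (E : Set P) ∧
        x * x ∈ (E ⊓ center P : Subgroup P)} := by
      have h := dvd_card_of_mul_right Et
        (fun x => x ∉ centralizer (E : Set P) ∧ x * x ∈ (E ⊓ center P : Subgroup P)) (by
        rintro x ⟨hxC, hxx'⟩ a ha
        have hxx := Subgroup.mem_inf.mp hxx'
        have haC := hEtC ha
        have hxaC : x * a ∉ centralizer (E : Set P) := by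
          intro h
          apply hxC
          have h1 := mul_mem h (inv_mem haC)
          rwa [mul_inv_cancel_right] at h1
        refine ⟨hxaC, ?_⟩
        have h1 : (x * a) * (x * a) = (x * x) * (x⁻¹ * a * x * a⁻¹) * (a * a) := by group
        have h2 : (x * a) * (x * a) ∈ E := by
          rw [h1]; exact mul_mem (mul_mem hxx.1 (hEtcomm a ha x)) (hEtsq a ha)
        exact Subgroup.mem_inf.mpr ⟨h2, hZ0 (x * a) hxaC _ h2 (mul_assoc _ _ _)⟩)
      rwa [hEt8] at h
    have hiff : ∀ x : P, (x ∉ centralizer (E : Set P) ∧ x * x ∈ (E ⊓ center P : Subgroup P)) ↔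
        ((x * x = 1 ∧ x ∉ centralizer (E : Set P)) ∨ (x * x = z ∧ x ∉ centralizer (E : Set P))) := by
      intro x
      constructor
      · rintro ⟨hxC, hxx'⟩
        have hxx := Subgroup.mem_inf.mp hxx'
        rcases hzall _ hxx.1 hxx.2 with h | h
        · exact Or.inl ⟨h, hxC⟩
        · exact Or.inr ⟨h, hxC⟩
      · rintro (⟨h, hxC⟩ | ⟨h, hxC⟩)
        · exact ⟨hxC, by rw [h]; exact one_mem _⟩
        · exact ⟨hxC, by rw [h]; exact Subgroup.mem_inf.mpr ⟨hzE, hzZ⟩⟩
    have hWeq : Nat.card {x : P // x ∉ centralizer (E : Set P) ∧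
          x * x ∈ (E ⊓ center P : Subgroup P)}
        = Nat.card {x : P // x * x = 1 ∧ x ∉ centralizer (E : Set P)}
          + Nat.card {x : P // x * x = z ∧ x ∉ centralizer (E : Set P)} :=
      (Nat.card_congr (Equiv.subtypeEquivRight hiff)).trans
        (card_or _ _ (fun x h1 h2 => hz1' (h2.1.symm.trans h1.1)))
    have hBB' : Nat.card {x : P // x * x = z ∧ x ∉ centralizer (E : Set P)}
        = Nat.card {x : P // x * x = 1 ∧ x ∉ centralizer (E : Set P)} := by
      apply Nat.card_congr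
      exact
        { toFun := fun x => ⟨x.1 * e₀, by
            rw [hkey x.1 x.2.2 (by rw [x.2.1]; exact hzZ), x.2.1]; exact hexp z hzE,
            hnotC x.1 x.2.2⟩
          invFun := fun x => ⟨x.1 * e₀, by
            rw [hkey x.1 x.2.2 (by rw [x.2.1]; exact one_mem _), x.2.1, one_mul],
            hnotC x.1 x.2.2⟩
          left_inv := fun x => Subtype.ext (by
            show x.1 * e₀ * e₀ = x.1
            rw [mul_assoc, hexp e₀ he₀E, mul_one])
          right_inv := fun x => Subtype.ext (by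
            show x.1 * e₀ * e₀ = x.1
            rw [mul_assoc, hexp e₀ he₀E, mul_one]) }
    obtain ⟨k, hk⟩ := hW
    exact ⟨k, by omega⟩

theorem card_fiber_gen (Z : Subgroup P) (hZ : Nat.card Z = 4) (hZc : IsCyclic Z) :
    Nat.card {x : P // orderOf x = 4 ∧ zpowers x = Z} = 2 := by
  classical
  have e : {x : P // orderOf x = 4 ∧ zpowers x = Z} ≃ {a : Z // orderOf a = 4} :=
    { toFun := fun x => ⟨⟨x.1, (SetLike.ext_iff.mp x.2.2 x.1).mp (mem_zpowers x.1)⟩, by
        rw [Subgroup.orderOf_mk]; exact x.2.1⟩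
      invFun := fun a => ⟨a.1.1, by rw [Subgroup.orderOf_coe]; exact a.2, by
        apply Subgroup.eq_of_le_of_card_ge (zpowers_le.mpr a.1.2)
        rw [Nat.card_zpowers, Subgroup.orderOf_coe, a.2, hZ]⟩
      left_inv := fun x => Subtype.ext rfl
      right_inv := fun a => Subtype.ext (Subtype.ext rfl) }
  rw [Nat.card_congr e]
  haveI := Fintype.ofFinite Z
  have h := IsCyclic.card_orderOf_eq_totient (α := Z) (d := 4)
    (by rw [← Nat.card_eq_fintype_card, hZ])
  have h4 : Nat.totient 4 = 2 := by decide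
  rw [Nat.card_eq_fintype_card, Fintype.card_subtype, ← h4, ← h]

theorem card_O_eq : Nat.card {x : P // orderOf x = 4}
    = 2 * Nat.card {Z : Subgroup P // Nat.card Z = 4 ∧ IsCyclic Z} := by
  classical
  letI : Fintype {Z : Subgroup P // Nat.card Z = 4 ∧ IsCyclic Z} := Fintype.ofFinite _
  have e : {x : P // orderOf x = 4} ≃
      Σ Z : {Z : Subgroup P // Nat.card Z = 4 ∧ IsCyclic Z},
        {x : P // orderOf x = 4 ∧ zpowers x = Z.1} :=
    { toFun := fun x => ⟨⟨zpowers x.1, by rw [Nat.card_zpowers]; exact x.2, inferInstance⟩,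
        ⟨x.1, x.2, rfl⟩⟩
      invFun := fun y => ⟨y.2.1, y.2.2.1⟩
      left_inv := fun x => rfl
      right_inv := by
        rintro ⟨⟨Z, hZ⟩, ⟨x, hx, hxZ⟩⟩
        have hxZ' : zpowers x = Z := hxZ
        subst hxZ'
        rfl }
  rw [Nat.card_congr e, Nat.card_sigma]
  rw [Finset.sum_congr rfl (fun Z _ => card_fiber_gen Z.1 Z.2.1 Z.2.2)]
  simp [Nat.card_eq_fintype_card, mul_comm]

/-- In a finite `2`-group with a normal four-group `E` whose centralizer is not `E` itself (or is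
everything), the number of cyclic subgroups of order `4` is even. -/
theorem k4_two_eq2 {P : Type*} [Group P] [Finite P] (hP : IsPGroup 2 P) (E : Subgroup P) [E.Normal]
    (hE : Nat.card E = 4) (hEc : ¬ IsCyclic E)
    (hC : Subgroup.centralizer (E : Set P) ≠ E ∨ Subgroup.centralizer (E : Set P) = ⊤) :
    2 ∣ Nat.card {Z : Subgroup P // Nat.card Z = 2 ^ 2 ∧ IsCyclic Z} := by
  have hA := card_A E hE hEc
  have hB := card_B hP E hE hEc hC
  have hD := card_D hP E hE hEc
  have hdisj1 : ∀ x : P, x * x = 1 → orderOf x = 4 → False := by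
    intro x h1 h2
    have h3 : orderOf x ∣ 2 := orderOf_dvd_of_pow_eq_one (by rw [pow_two]; exact h1)
    rw [h2] at h3
    have h4 := Nat.le_of_dvd (by norm_num) h3
    omega
  have hiff1 : ∀ x : P, x ^ 4 = 1 ↔ (x * x = 1 ∨ orderOf x = 4) := by
    intro x
    constructor
    · intro h
      have hd : orderOf x ∣ 2 ^ 2 := by
        have h0 := orderOf_dvd_of_pow_eq_one h
        norm_num
        exact h0
      obtain ⟨j, hj, hjo⟩ := (Nat.dvd_prime_pow Nat.prime_two).mp hd
      interval_cases j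
      · left
        rw [pow_zero] at hjo
        rw [orderOf_eq_one_iff.mp hjo, mul_one]
      · left
        have h5 := pow_orderOf_eq_one x
        rw [hjo, pow_one] at h5
        rw [← pow_two]; exact h5
      · right
        rw [hjo]; norm_num
    · rintro (h | h)
      · calc x ^ 4 = x ^ (2 * 2) := by norm_num
          _ = (x ^ 2) ^ 2 := pow_mul x 2 2
          _ = 1 := by rw [pow_two x, h, one_pow]
      · rw [← h]; exact pow_orderOf_eq_one x
  have h1 : Nat.card {x : P // x ^ 4 = 1}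
      = Nat.card {x : P // x * x = 1} + Nat.card {x : P // orderOf x = 4} :=
    (Nat.card_congr (Equiv.subtypeEquivRight hiff1)).trans (card_or _ _ hdisj1)
  have hiff2 : ∀ x : P, x * x = 1 ↔ ((x * x = 1 ∧ x ∈ centralizer (E : Set P)) ∨
      (x * x = 1 ∧ x ∉ centralizer (E : Set P))) := by
    intro x
    constructor
    · intro h
      by_cases hx : x ∈ centralizer (E : Set P)
      · exact Or.inl ⟨h, hx⟩
      · exact Or.inr ⟨h, hx⟩
    · rintro (h | h)
      · exact h.1
      · exact h.1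
  have h2 : Nat.card {x : P // x * x = 1}
      = Nat.card {x : P // x * x = 1 ∧ x ∈ centralizer (E : Set P)}
        + Nat.card {x : P // x * x = 1 ∧ x ∉ centralizer (E : Set P)} :=
    (Nat.card_congr (Equiv.subtypeEquivRight hiff2)).trans
      (card_or _ _ (fun x h1 h2 => h2.2 h1.2))
  have hO : 4 ∣ Nat.card {x : P // orderOf x = 4} := by
    have hSq : 4 ∣ Nat.card {x : P // x * x = 1} := by rw [h2]; exact dvd_add hA hB
    rw [h1] at hD
    exact (Nat.dvd_add_right hSq).mp hD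
  rw [card_O_eq] at hO
  have hfin : 2 ∣ Nat.card {Z : Subgroup P // Nat.card Z = 4 ∧ IsCyclic Z} := by
    obtain ⟨k, hk⟩ := hO
    exact ⟨k, by omega⟩
  rwa [Nat.card_congr (Equiv.subtypeEquivRight (fun Z : Subgroup P =>
    (by norm_num : Nat.card Z = 2 ^ 2 ∧ IsCyclic Z ↔ Nat.card Z = 4 ∧ IsCyclic Z)))]

end

end Cfsg.Agent.Lib.lead.K4157c
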