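import Mathlib
import Cfsg.Agent.Lib.helper1.Solv

namespace Cfsg.Agent.Lib.lead.S1451B

open Subgroup Cfsg.Agent.Lib.helper1

theorem sylow_gen {X : Type*} [Group X] [Finite X] (J : Subgroup X)
    (hJ : ∀ (q : ℕ), q.Prime → ∀ (x : X) (n : ℕ), orderOf x = q ^ n → x ∈ J) : J = ⊤ := by
  rw [← Subgroup.index_eq_one]
  by_contra hne
  obtain ⟨q, hq, hqd⟩ := Nat.exists_prime_and_dvd hne
  haveI : Fact q.Prime := ⟨hq⟩
  obtain ⟨P⟩ : Nonempty (Sylow q X) := inferInstance
  have hPJ : (P : Subgroup X) ≤ J := by
    intro x hx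
    obtain ⟨n, hn⟩ := (IsPGroup.iff_orderOf.mp P.isPGroup') ⟨x, hx⟩
    exact hJ q hq x n (by rw [← hn, Subgroup.orderOf_mk])
  have h1 : J.index ∣ (P : Subgroup X).index := Subgroup.index_dvd_of_le hPJ
  exact P.not_dvd_index (hqd.trans h1)

theorem mem_pCore_of_central {G : Type*} [Group G] [Finite G] (q : ℕ) [Fact q.Prime] (n : ℕ)
    (w : G) (hwF : w ∈ Cfsg.fittingSubgroup G)
    (hwC : w ∈ centralizer (Cfsg.fittingSubgroup G : Set G)) (hw : w ^ (q ^ n) = 1) :
    w ∈ Cfsg.pCore q G := by
  haveI hFn : (Cfsg.fittingSubgroup G).Normal := fitting_normal G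
  haveI hCn : (centralizer (Cfsg.fittingSubgroup G : Set G)).Normal := Subgroup.normal_centralizer
  let A : Subgroup G :=
    { carrier := {a | a ∈ Cfsg.fittingSubgroup G ∧
        a ∈ centralizer (Cfsg.fittingSubgroup G : Set G) ∧ a ^ (q ^ n) = 1}
      mul_mem' := by
        rintro a b ⟨haF, haC, ha⟩ ⟨hbF, hbC, hb⟩
        refine ⟨mul_mem haF hbF, mul_mem haC hbC, ?_⟩
        have hab : Commute a b := ((Subgroup.mem_centralizer_iff.mp haC) b hbF).symm
        rw [hab.mul_pow, ha, hb, one_mul]
      one_mem' := ⟨one_mem _, one_mem _, one_pow _⟩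
      inv_mem' := by
        rintro a ⟨haF, haC, ha⟩
        exact ⟨inv_mem haF, inv_mem haC, by rw [inv_pow, ha, inv_one]⟩ }
  have hAn : A.Normal := by
    constructor
    rintro a ⟨haF, haC, ha⟩ g
    refine ⟨hFn.conj_mem a haF g, hCn.conj_mem a haC g, ?_⟩
    rw [conj_pow, ha, mul_one, mul_inv_cancel]
  have hAp : IsPGroup q A := by
    intro a
    refine ⟨n, ?_⟩
    apply Subtype.ext
    rw [Subgroup.coe_pow]
    exact a.2.2.2
  exact (le_pCore hAn hAp) (show w ∈ A from ⟨hwF, hwC, hw⟩)

theorem commutator_le_fitting {G : Type*} [Group G] [Finite G] [Group.IsSolvable G]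
    (h : ∀ q : ℕ, q.Prime → ∀ g ∈ commutator G, (orderOf g).Coprime q →
      g ∈ Subgroup.centralizer ((Cfsg.pCore q G : Subgroup G) : Set G)) :
    commutator G ≤ Cfsg.fittingSubgroup G ∧ Group.IsNilpotent ↥(commutator G) := by
  classical
  haveI hFn : (Cfsg.fittingSubgroup G).Normal := fitting_normal G
  have hcF := centralizer_fitting_le G
  have claim : ∀ (r : ℕ), r.Prime → ∀ (x : G) (n : ℕ), x ∈ commutator G → orderOf x = r ^ n →
      x ∈ Cfsg.fittingSubgroup G := by
    intro r hr x₀ n₀ hx₀K hx₀
    haveI : Fact r.Prime := ⟨hr⟩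
    obtain ⟨H, hHdef⟩ : ∃ H : Subgroup G, H = Subgroup.normalClosure
        ({x | x ∈ commutator G ∧ ∃ n, orderOf x = r ^ n} : Set G) := ⟨_, rfl⟩
    have hHn : H.Normal := by rw [hHdef]; exact Subgroup.normalClosure_normal
    have hHK : H ≤ commutator G := by
      rw [hHdef]; exact Subgroup.normalClosure_le_normal (fun x hx => hx.1)
    have hHq : ∀ q : ℕ, q.Prime → q ≠ r →
        H ≤ centralizer ((Cfsg.pCore q G : Subgroup G) : Set G) := by
      intro q hq hqr
      haveI : (Cfsg.pCore q G).Normal := pCore_normal q G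
      haveI : (centralizer ((Cfsg.pCore q G : Subgroup G) : Set G)).Normal :=
        Subgroup.normal_centralizer
      rw [hHdef]
      apply Subgroup.normalClosure_le_normal
      rintro x ⟨hxK, n, hxn⟩
      apply h q hq x hxK
      rw [hxn]
      exact Nat.Coprime.pow_left n ((Nat.coprime_primes hr hq).mpr (Ne.symm hqr))
    have hcent : ∀ y ∈ H, (orderOf y).Coprime r → y ∈ centralizer (H : Set G) := by
      intro y hyH hyr
      have hyK := hHK hyH
      have hyall : ∀ q : ℕ, q.Prime →
          y ∈ centralizer ((Cfsg.pCore q G : Subgroup G) : Set G) := by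
        intro q hq
        by_cases hqr : q = r
        · subst hqr; exact h q hq y hyK hyr
        · exact hHq q hq hqr hyH
      have hFy : Cfsg.fittingSubgroup G ≤ centralizer ({y} : Set G) := by
        rw [fitting_eq_iSup_pCore G]
        apply iSup_le
        intro p z hz
        rw [Subgroup.mem_centralizer_iff]
        intro w hw
        rw [Set.mem_singleton_iff] at hw
        rw [hw]
        exact ((Subgroup.mem_centralizer_iff.mp (hyall p p.2)) z hz).symm
      have hyCF : y ∈ centralizer (Cfsg.fittingSubgroup G : Set G) := by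
        rw [Subgroup.mem_centralizer_iff]
        intro z hz
        have h1 := Subgroup.mem_centralizer_iff.mp (hFy hz) y (Set.mem_singleton y)
        exact h1.symm
      have hyF : y ∈ Cfsg.fittingSubgroup G := hcF hyCF
      have hgen : ∀ (q : ℕ), q.Prime → ∀ (w : ↥(zpowers y)) (n : ℕ), orderOf w = q ^ n →
          w ∈ (centralizer (H : Set G)).subgroupOf (zpowers y) := by
        intro q hq w n hwn
        rw [Subgroup.mem_subgroupOf]
        haveI : Fact q.Prime := ⟨hq⟩
        have hwn' : orderOf (w : G) = q ^ n := by rw [Subgroup.orderOf_coe]; exact hwn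
        by_cases hqr : q = r
        · subst hqr
          have hdvd : orderOf (w : G) ∣ orderOf y := orderOf_dvd_of_mem_zpowers w.2
          have hcop : (orderOf (w : G)).Coprime q := Nat.Coprime.coprime_dvd_left hdvd hyr
          rw [hwn'] at hcop
          have hn0 : n = 0 := by
            by_contra hn
            have h1 : Nat.Coprime q q :=
              (Nat.coprime_pow_left_iff (Nat.pos_of_ne_zero hn) q q).mp hcop
            rw [Nat.coprime_self] at h1
            exact hq.one_lt.ne' h1
          rw [hn0, pow_zero, orderOf_eq_one_iff] at hwn'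
          rw [hwn']; exact one_mem _
        · obtain ⟨k, hk⟩ := Subgroup.mem_zpowers_iff.mp w.2
          have hwF : (w : G) ∈ Cfsg.fittingSubgroup G := by rw [← hk]; exact zpow_mem hyF k
          have hwC : (w : G) ∈ centralizer (Cfsg.fittingSubgroup G : Set G) := by
            rw [← hk]; exact zpow_mem hyCF k
          have hw1 : (w : G) ^ (q ^ n) = 1 := by rw [← hwn']; exact pow_orderOf_eq_one _
          have hwcore := mem_pCore_of_central q n (w : G) hwF hwC hw1
          rw [Subgroup.mem_centralizer_iff]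
          intro x hx
          exact ((Subgroup.mem_centralizer_iff.mp (hHq q hq hqr hx)) (w : G) hwcore).symm
      have hJ := sylow_gen _ hgen
      have h2 : (⟨y, mem_zpowers y⟩ : zpowers y) ∈
          (centralizer (H : Set G)).subgroupOf (zpowers y) := by
        rw [hJ]; exact Subgroup.mem_top _
      exact Subgroup.mem_subgroupOf.mp h2
    have hHnil : Group.IsNilpotent H := by
      have hP : IsPGroup r (↥H ⧸ center ↥H) := by
        intro ybar
        obtain ⟨y, rfl⟩ := QuotientGroup.mk_surjective ybar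
        have hy0 : orderOf y ≠ 0 := (orderOf_pos y).ne'
        obtain ⟨a, m', hm', hmm⟩ := Nat.exists_eq_pow_mul_and_not_dvd hy0 r hr.ne_one
        refine ⟨a, ?_⟩
        rw [← QuotientGroup.mk_pow, QuotientGroup.eq_one_iff]
        have hw : (orderOf (y ^ (r ^ a))).Coprime r := by
          have hd : orderOf (y ^ (r ^ a)) ∣ m' := by
            apply orderOf_dvd_of_pow_eq_one
            rw [← pow_mul, ← hmm]; exact pow_orderOf_eq_one y
          exact Nat.Coprime.coprime_dvd_left hd ((Nat.Prime.coprime_iff_not_dvd hr).mpr hm').symm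
        have hwG : (orderOf ((y ^ (r ^ a) : ↥H) : G)).Coprime r := by
          rw [Subgroup.orderOf_coe]; exact hw
        have hc := hcent _ (y ^ (r ^ a)).2 hwG
        rw [Subgroup.mem_center_iff]
        intro g
        apply Subtype.ext
        exact (Subgroup.mem_centralizer_iff.mp hc) (g : G) g.2
      haveI : Group.IsNilpotent (↥H ⧸ center ↥H) := hP.isNilpotent
      exact Subgroup.isNilpotent_of_ker_le_center (QuotientGroup.mk' (center ↥H))
        (by rw [QuotientGroup.ker_mk'])
    have hHF : H ≤ Cfsg.fittingSubgroup G := le_fitting hHn hHnil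
    apply hHF
    rw [hHdef]
    exact Subgroup.subset_normalClosure ⟨hx₀K, n₀, hx₀⟩
  have hKF : commutator G ≤ Cfsg.fittingSubgroup G := by
    have hgen : ∀ (q : ℕ), q.Prime → ∀ (x : ↥(commutator G)) (n : ℕ), orderOf x = q ^ n →
        x ∈ (Cfsg.fittingSubgroup G).subgroupOf (commutator G) := by
      intro q hq x n hxn
      rw [Subgroup.mem_subgroupOf]
      exact claim q hq (x : G) n x.2 (by rw [Subgroup.orderOf_coe]; exact hxn)
    have hJ := sylow_gen _ hgen
    intro g hg
    have h2 : (⟨g, hg⟩ : commutator G) ∈ (Cfsg.fittingSubgroup G).subgroupOf (commutator G) := by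
      rw [hJ]; exact Subgroup.mem_top _
    exact Subgroup.mem_subgroupOf.mp h2
  refine ⟨hKF, ?_⟩
  haveI : Group.IsNilpotent (Cfsg.fittingSubgroup G) := fitting_isNilpotent G
  exact Subgroup.isNilpotent_of_ker_le_center (Subgroup.inclusion hKF) (by
    rw [(MonoidHom.ker_eq_bot_iff _).mpr (Subgroup.inclusion_injective hKF)]; exact bot_le)

end Cfsg.Agent.Lib.lead.S1451B
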