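import Mathlib

set_option autoImplicit false

namespace Cfsg.Agent.Lib.lead.S1455Q2

theorem narrow_count {R : Type*} [Group R] [Finite R] (p : ℕ) [Fact p.Prime]
    (R₀ R₁ B : Subgroup R) (h0 : Nat.card R₀ = p) (h1 : IsCyclic R₁)
    (hc : ∀ a ∈ R₀, ∀ b ∈ R₁, a * b = b * a) (hB : B ≤ R₀ ⊔ R₁) (hBp : ∀ b ∈ B, b ^ p = 1) :
    Nat.card B ≤ p ^ 2 := by
  classical
  have hp := (Fact.out : p.Prime)
  let T : Subgroup R :=
    { carrier := {x | ∃ a ∈ R₀, ∃ c ∈ R₁, x = a * c}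
      mul_mem' := by
        rintro x y ⟨a, ha, c, hc', rfl⟩ ⟨a', ha', c', hc'', rfl⟩
        refine ⟨a * a', R₀.mul_mem ha ha', c * c', R₁.mul_mem hc' hc'', ?_⟩
        have h := hc a' ha' c hc'
        calc a * c * (a' * c') = a * (c * a') * c' := by group
          _ = a * (a' * c) * c' := by rw [h]
          _ = a * a' * (c * c') := by group
      one_mem' := ⟨1, R₀.one_mem, 1, R₁.one_mem, (one_mul 1).symm⟩
      inv_mem' := by
        rintro x ⟨a, ha, c, hc', rfl⟩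
        refine ⟨a⁻¹, R₀.inv_mem ha, c⁻¹, R₁.inv_mem hc', ?_⟩
        rw [mul_inv_rev]
        exact (hc _ (R₀.inv_mem ha) _ (R₁.inv_mem hc')).symm }
  have hT : R₀ ⊔ R₁ ≤ T :=
    sup_le (fun a ha => ⟨a, ha, 1, R₁.one_mem, (mul_one a).symm⟩)
      (fun c hc' => ⟨1, R₀.one_mem, c, hc', (one_mul c).symm⟩)
  have key : ∀ b : ↥B, ∃ y : ↥R₀ × {c : ↥R₁ // c ^ p = 1},
      (b : R) = (y.1 : R) * ((y.2 : ↥R₁) : R) := by
    intro b
    obtain ⟨a, ha, c, hc', hbac⟩ := hT (hB b.2)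
    have hap : a ^ p = 1 := by
      have h := pow_card_eq_one' (G := ↥R₀) (x := ⟨a, ha⟩)
      rw [h0] at h
      have h2 := congrArg Subtype.val h
      simpa using h2
    have hcp : c ^ p = 1 := by
      have h := hBp b b.2
      rw [hbac, (show Commute a c from hc a ha c hc').mul_pow, hap, one_mul] at h
      exact h
    refine ⟨(⟨a, ha⟩, ⟨⟨c, hc'⟩, ?_⟩), hbac⟩
    exact Subtype.ext (by simpa using hcp)
  choose g hg using key
  have hinj : Function.Injective g := by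
    intro b b' h
    apply Subtype.ext
    rw [hg b, hg b', h]
  haveI := h1
  haveI : Fintype ↥R₁ := Fintype.ofFinite _
  have hle := Nat.card_le_card_of_injective g hinj
  rw [Nat.card_prod, h0] at hle
  have hcyc : Nat.card {c : ↥R₁ // c ^ p = 1} ≤ p := by
    rw [Nat.card_eq_fintype_card, Fintype.card_subtype]
    exact IsCyclic.card_pow_eq_one_le hp.pos
  calc Nat.card B ≤ p * Nat.card {c : ↥R₁ // c ^ p = 1} := hle
    _ ≤ p * p := Nat.mul_le_mul_left p hcyc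
    _ = p ^ 2 := (sq p).symm

theorem narrow_quot {G : Type*} [Group G] [Finite G] (p : ℕ) [Fact p.Prime] (S : Sylow p G)
    (N : Subgroup G) [N.Normal] (hN : (Nat.card N).Coprime p)
    (hSn : N ⊔ Subgroup.normalizer ((S : Subgroup G) : Set G) = ⊤)
    (R₀ R₁ : Subgroup ↥(S : Subgroup G)) (h0 : Nat.card R₀ = p) (h1 : IsCyclic R₁)
    (hc : ∀ a ∈ R₀, ∀ b ∈ R₁, a * b = b * a)
    (hsup : R₀ ⊔ R₁ = Subgroup.centralizer (R₀ : Set ↥(S : Subgroup G))) :
    ∃ P E : Subgroup (G ⧸ N), P.Normal ∧ IsPGroup p P ∧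
      (∀ Q : Subgroup (G ⧸ N), Q.Normal → IsPGroup p Q → Q ≤ P) ∧ E ≤ P ∧
      (∀ a ∈ E, ∀ b ∈ E, a * b = b * a) ∧ (∀ a ∈ E, a ^ p = 1) ∧
      ∀ B : Subgroup (G ⧸ N), B ≤ P → B ≤ Subgroup.centralizer (E : Set (G ⧸ N)) →
        (∀ a ∈ B, ∀ b ∈ B, a * b = b * a) → (∀ b ∈ B, b ^ p = 1) → Nat.card B ≤ p ^ 2 := by
  classical
  have hp := (Fact.out : p.Prime)
  obtain ⟨π, hπdef⟩ : ∃ π : G →* G ⧸ N, π = QuotientGroup.mk' N := ⟨_, rfl⟩
  have hπ : Function.Surjective π := hπdef ▸ QuotientGroup.mk'_surjective N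
  have hπ1 : ∀ x : G, π x = 1 ↔ x ∈ N := by
    intro x
    rw [hπdef]
    exact QuotientGroup.eq_one_iff x
  obtain ⟨φ, hφdef⟩ : ∃ φ : ↥(S : Subgroup G) →* G ⧸ N, φ = π.comp (S : Subgroup G).subtype :=
    ⟨_, rfl⟩
  have hφ : ∀ s : ↥(S : Subgroup G), φ s = π (s : G) := fun s => by rw [hφdef]; rfl
  have hφinj : Function.Injective φ := by
    rw [injective_iff_map_eq_one]
    intro s hs
    rw [hφ, hπ1] at hs
    obtain ⟨k, hk⟩ := S.isPGroup' s
    have h1 : orderOf (s : G) ∣ p ^ k := orderOf_dvd_of_pow_eq_one (by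
      have := congrArg Subtype.val hk
      simpa using this)
    have h2 : orderOf (s : G) ∣ Nat.card N := Subgroup.orderOf_dvd_natCard N hs
    have h3 : orderOf (s : G) = 1 :=
      Nat.Coprime.eq_one_of_dvd ((Nat.Coprime.coprime_dvd_left h2 hN).pow_right k) h1
    exact Subtype.ext (orderOf_eq_one_iff.mp h3)
  obtain ⟨P, hPdef⟩ : ∃ P : Subgroup (G ⧸ N), P = (S : Subgroup G).map π := ⟨_, rfl⟩
  have hPmem : ∀ x, x ∈ P ↔ ∃ s : ↥(S : Subgroup G), φ s = x := by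
    intro x
    rw [hPdef]
    constructor
    · rintro ⟨s, hs, rfl⟩
      exact ⟨⟨s, hs⟩, hφ _⟩
    · rintro ⟨s, rfl⟩
      exact ⟨(s : G), s.2, (hφ s).symm⟩
  have hPp : IsPGroup p P := hPdef ▸ S.isPGroup'.map π
  have hPn : P.Normal := by
    constructor
    intro x hx y
    rw [hPdef] at hx ⊢
    obtain ⟨s, hs, rfl⟩ := hx
    obtain ⟨g, rfl⟩ := hπ y
    have hg : g ∈ ((N ⊔ Subgroup.normalizer ((S : Subgroup G) : Set G) : Subgroup G) : Set G) := by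
      rw [hSn]; trivial
    rw [Subgroup.normal_mul] at hg
    obtain ⟨k, hk, n, hn, rfl⟩ := Set.mem_mul.mp hg
    have hk1 : π k = 1 := (hπ1 k).mpr hk
    refine ⟨n * s * n⁻¹, (Subgroup.mem_normalizer_iff.mp hn s).mp hs, ?_⟩
    rw [map_mul π k n, hk1, one_mul, ← map_inv, ← map_mul, ← map_mul]
  have hPmax : ∀ Q : Subgroup (G ⧸ N), Q.Normal → IsPGroup p Q → Q ≤ P := by
    intro Q hQn hQp
    have hco : ((S.mapSurjective hπ : Sylow p (G ⧸ N)) : Subgroup (G ⧸ N)) = P := by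
      rw [hPdef]; exact Sylow.coe_mapSurjective hπ S
    haveI := hQn
    have hsupp : IsPGroup p ↥(P ⊔ Q : Subgroup (G ⧸ N)) := IsPGroup.to_sup_of_normal_right hPp hQp
    have heq := (S.mapSurjective hπ).3 hsupp (by rw [hco]; exact le_sup_left)
    rw [hco] at heq
    calc Q ≤ P ⊔ Q := le_sup_right
      _ = P := heq
  obtain ⟨E, hEdef⟩ : ∃ E : Subgroup (G ⧸ N), E = R₀.map φ := ⟨_, rfl⟩
  have hEP : E ≤ P := by
    intro x hx
    rw [hEdef] at hx
    obtain ⟨r, -, rfl⟩ := hx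
    exact (hPmem _).mpr ⟨r, rfl⟩
  haveI : IsCyclic ↥R₀ := isCyclic_of_prime_card h0
  haveI : IsMulCommutative ↥R₀ := IsCyclic.isMulCommutative
  have hcomm0 : ∀ a b : ↥R₀, a * b = b * a :=
    fun a b => (inferInstance : IsMulCommutative ↥R₀).is_comm.comm a b
  have hEc : ∀ a ∈ E, ∀ b ∈ E, a * b = b * a := by
    intro a ha b hb
    rw [hEdef] at ha hb
    obtain ⟨a, ha, rfl⟩ := ha
    obtain ⟨b, hb, rfl⟩ := hb
    have h := congrArg Subtype.val (hcomm0 ⟨a, ha⟩ ⟨b, hb⟩)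
    have h' : a * b = b * a := h
    rw [← map_mul, ← map_mul, h']
  have hEp : ∀ a ∈ E, a ^ p = 1 := by
    intro a ha
    rw [hEdef] at ha
    obtain ⟨a, ha, rfl⟩ := ha
    have h := pow_card_eq_one' (G := ↥R₀) (x := ⟨a, ha⟩)
    rw [h0] at h
    have h' : a ^ p = 1 := congrArg Subtype.val h
    rw [← map_pow, h', map_one]
  refine ⟨P, E, hPn, hPp, hPmax, hEP, hEc, hEp, ?_⟩
  intro B hBP hBC _ hBp
  obtain ⟨B', hB'def⟩ : ∃ B' : Subgroup ↥(S : Subgroup G), B' = B.comap φ := ⟨_, rfl⟩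
  have hB'mem : ∀ b, b ∈ B' ↔ φ b ∈ B := fun b => by rw [hB'def]; exact Subgroup.mem_comap
  have hcard : Nat.card B = Nat.card B' := by
    have h1 : B'.map φ = B := by
      rw [hB'def]
      apply Subgroup.map_comap_eq_self
      intro x hx
      obtain ⟨s, rfl⟩ := (hPmem x).mp (hBP hx)
      exact ⟨s, rfl⟩
    rw [← h1, Subgroup.card_map_of_injective hφinj]
  have hB'p : ∀ b ∈ B', b ^ p = 1 := by
    intro b hb
    apply hφinj
    rw [map_pow, map_one]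
    exact hBp _ ((hB'mem b).mp hb)
  have hB'le : B' ≤ R₀ ⊔ R₁ := by
    rw [hsup]
    intro b hb
    rw [Subgroup.mem_centralizer_iff]
    intro r hr
    apply hφinj
    rw [map_mul, map_mul]
    have h1 : φ b ∈ Subgroup.centralizer (E : Set (G ⧸ N)) := hBC ((hB'mem b).mp hb)
    exact (Subgroup.mem_centralizer_iff.mp h1) (φ r) (by rw [hEdef]; exact ⟨r, hr, rfl⟩)
  rw [hcard]
  exact narrow_count p R₀ R₁ B' h0 h1 hc hB'le hB'p

end Cfsg.Agent.Lib.lead.S1455Q2
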