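import Mathlib

set_option autoImplicit false

open scoped commutatorElement

namespace Cfsg.Agent.Lib.lead.S1456M2

variable {G : Type*} [Group G]

theorem sup_zpowers_comm (B : Subgroup G) (e : G) (hB : ∀ a ∈ B, ∀ b ∈ B, a * b = b * a)
    (hBe : ∀ b ∈ B, b * e = e * b) :
    (∀ a ∈ B ⊔ Subgroup.zpowers e, ∀ b ∈ B ⊔ Subgroup.zpowers e, a * b = b * a) ∧
      (∀ b ∈ B ⊔ Subgroup.zpowers e, b * e = e * b) := by
  obtain ⟨K, hKdef⟩ : ∃ K : Subgroup G, K = B ⊔ Subgroup.zpowers e := ⟨_, rfl⟩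
  rw [← hKdef]
  have hK_le : ∀ H : Subgroup G, B ≤ H → e ∈ H → K ≤ H := by
    intro H h1 h2
    rw [hKdef]
    exact sup_le h1 (Subgroup.zpowers_le.mpr h2)
  have hKe : ∀ b ∈ K, b * e = e * b := by
    intro b hb
    have h1 : K ≤ Subgroup.centralizer ({e} : Set G) := by
      apply hK_le
      · intro x hx
        rw [Subgroup.mem_centralizer_iff]
        intro h hh
        rw [Set.mem_singleton_iff] at hh
        rw [hh]
        exact (hBe x hx).symm
      · rw [Subgroup.mem_centralizer_iff]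
        intro h hh
        rw [Set.mem_singleton_iff] at hh
        rw [hh]
    have := (Subgroup.mem_centralizer_iff.mp (h1 hb)) e (Set.mem_singleton e)
    exact this.symm
  have hKB : ∀ x ∈ B, ∀ y ∈ K, x * y = y * x := by
    intro x hx y hy
    have h1 : K ≤ Subgroup.centralizer ({x} : Set G) := by
      apply hK_le
      · intro b hb
        rw [Subgroup.mem_centralizer_iff]
        intro h hh
        rw [Set.mem_singleton_iff] at hh
        rw [hh]
        exact hB x hx b hb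
      · rw [Subgroup.mem_centralizer_iff]
        intro h hh
        rw [Set.mem_singleton_iff] at hh
        rw [hh]
        exact hBe x hx
    exact (Subgroup.mem_centralizer_iff.mp (h1 hy)) x (Set.mem_singleton x)
  have hKcomm : ∀ a ∈ K, ∀ b ∈ K, a * b = b * a := by
    intro a ha b hb
    have h1 : K ≤ Subgroup.centralizer ({a} : Set G) := by
      apply hK_le
      · intro x hx
        rw [Subgroup.mem_centralizer_iff]
        intro h hh
        rw [Set.mem_singleton_iff] at hh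
        rw [hh]
        exact (hKB x hx a ha).symm
      · rw [Subgroup.mem_centralizer_iff]
        intro h hh
        rw [Set.mem_singleton_iff] at hh
        rw [hh]
        exact hKe a ha
    exact (Subgroup.mem_centralizer_iff.mp (h1 hb)) a (Set.mem_singleton a)
  exact ⟨hKcomm, hKe⟩

theorem p_mul_card_le [Finite G] (p : ℕ) [Fact p.Prime] {H K : Subgroup G} (hK : IsPGroup p K)
    (hle : H ≤ K) (hne : H ≠ K) : p * Nat.card H ≤ Nat.card K := by
  have hp := (Fact.out : p.Prime)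
  obtain ⟨a, ha⟩ := hK.exists_card_eq
  obtain ⟨b, hb⟩ := (hK.to_le hle).exists_card_eq
  have hlt : Nat.card H < Nat.card K :=
    lt_of_le_of_ne (Subgroup.card_le_of_le hle)
      (fun h => hne (Subgroup.eq_of_le_of_card_ge hle h.ge))
  rw [ha, hb] at hlt
  rw [ha, hb]
  have hba : b < a := (Nat.pow_lt_pow_iff_right hp.one_lt).mp hlt
  calc p * p ^ b = p ^ (b + 1) := by ring
    _ ≤ p ^ a := Nat.pow_le_pow_right hp.pos hba

theorem rank_of_mem [Finite G] (p : ℕ) [Fact p.Prime] (D : Subgroup G)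
    (hexp : ∀ d ∈ D, d ^ p = 1)
    (hcl : ∀ x ∈ D, ∀ y ∈ D, ∀ z ∈ D, ⁅x, y⁆ * z = z * ⁅x, y⁆) (e : G) (he : e ∈ D)
    (hr : ∀ B : Subgroup G, B ≤ D → (∀ b ∈ B, b * e = e * b) →
      (∀ a ∈ B, ∀ b ∈ B, a * b = b * a) → Nat.card B ≤ p ^ 2) :
    ∀ B : Subgroup G, B ≤ D → (∀ a ∈ B, ∀ b ∈ B, a * b = b * a) → Nat.card B ≤ p ^ 2 := by
  classical
  have hp := (Fact.out : p.Prime)
  intro B hBD hBcomm
  by_cases hcent : ∀ d ∈ D, d * e = e * d
  · exact hr B hBD (fun b hb => hcent b (hBD hb)) hBcomm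
  by_cases heB : e ∈ B
  · exact hr B hBD (fun b hb => hBcomm b hb e heB) hBcomm
  have hDp : IsPGroup p D := fun g => ⟨1, by
    rw [pow_one]
    exact Subtype.ext (by simpa using hexp (g : G) g.2)⟩
  have hcm : ∀ d ∈ D, ⁅d, e⁆ ∈ D := by
    intro d hd
    rw [commutatorElement_def]
    exact D.mul_mem (D.mul_mem (D.mul_mem hd he) (D.inv_mem hd)) (D.inv_mem he)
  have hmul : ∀ a ∈ D, ∀ b ∈ D, ⁅a * b, e⁆ = ⁅a, e⁆ * ⁅b, e⁆ := by
    intro a ha b hb
    have h1 : ⁅b, e⁆ * a = a * ⁅b, e⁆ := hcl b hb e he a ha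
    have h2 : ⁅b, e⁆ * ⁅a, e⁆ = ⁅a, e⁆ * ⁅b, e⁆ := hcl b hb e he _ (hcm a ha)
    calc ⁅a * b, e⁆ = a * ⁅b, e⁆ * a⁻¹ * ⁅a, e⁆ := by
          simp only [commutatorElement_def]; group
      _ = ⁅b, e⁆ * ⁅a, e⁆ := by rw [← h1]; group
      _ = ⁅a, e⁆ * ⁅b, e⁆ := h2
  let f : ↥D →* ↥D := MonoidHom.mk' (fun d => ⟨⁅(d : G), e⁆, hcm d d.2⟩) (by
    intro a b
    exact Subtype.ext (hmul a a.2 b b.2))
  have hf : ∀ d : ↥D, ((f d : ↥D) : G) = ⁅(d : G), e⁆ := fun d => rfl
  obtain ⟨KG, hKGdef⟩ : ∃ KG : Subgroup G, KG = f.range.map D.subtype := ⟨_, rfl⟩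
  have hKGcard : Nat.card KG = Nat.card f.range := by
    rw [hKGdef, Subgroup.card_map_of_injective (Subgroup.subtype_injective D)]
  have hKGD : KG ≤ D := hKGdef ▸ Subgroup.map_subtype_le _
  have hKGcent : ∀ x ∈ KG, ∀ z ∈ D, x * z = z * x := by
    intro x hx z hz
    rw [hKGdef] at hx
    obtain ⟨y, ⟨d, rfl⟩, rfl⟩ := hx
    show ((f d : ↥D) : G) * z = z * ((f d : ↥D) : G)
    rw [hf]
    exact hcl d d.2 e he z hz
  have heKG : e ∉ KG := fun h => hcent (fun d hd => (hKGcent e h d hd).symm)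
  have hKGp : Nat.card KG ≤ p := by
    obtain ⟨h1, h2⟩ := sup_zpowers_comm KG e (fun a ha b hb => hKGcent a ha b (hKGD hb))
      (fun b hb => hKGcent b hb e he)
    have hle : KG ⊔ Subgroup.zpowers e ≤ D := sup_le hKGD (Subgroup.zpowers_le.mpr he)
    have h3 := hr _ hle h2 h1
    have hne : KG ≠ KG ⊔ Subgroup.zpowers e := by
      intro h
      apply heKG
      rw [h]
      exact (le_sup_right : Subgroup.zpowers e ≤ KG ⊔ Subgroup.zpowers e)
        (Subgroup.mem_zpowers e)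
    have h4 := p_mul_card_le p (hDp.to_le hle) le_sup_left hne
    have h5 : p * Nat.card KG ≤ p * p := by rw [← sq]; exact h4.trans h3
    exact Nat.le_of_mul_le_mul_left h5 hp.pos
  let ψ : ↥B →* ↥D := f.comp (Subgroup.inclusion hBD)
  have hψ : ∀ b : ↥B, ((ψ b : ↥D) : G) = ⁅(b : G), e⁆ := fun b => rfl
  obtain ⟨B0, hB0def⟩ : ∃ B0 : Subgroup G, B0 = ψ.ker.map B.subtype := ⟨_, rfl⟩
  have hB0card : Nat.card B0 = Nat.card ψ.ker := by
    rw [hB0def, Subgroup.card_map_of_injective (Subgroup.subtype_injective B)]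
  have hB0B : B0 ≤ B := hB0def ▸ Subgroup.map_subtype_le _
  have hB0e : ∀ x ∈ B0, x * e = e * x := by
    intro x hx
    rw [hB0def] at hx
    obtain ⟨b, hb, rfl⟩ := hx
    have h1 : ψ b = 1 := MonoidHom.mem_ker.mp hb
    have h2 : ⁅(b : G), e⁆ = 1 := by
      rw [← hψ, h1]; rfl
    exact commutatorElement_eq_one_iff_mul_comm.mp h2
  have hrange : Nat.card ψ.range ≤ p := by
    have hle : ψ.range ≤ f.range := by
      rintro _ ⟨b, rfl⟩
      exact ⟨Subgroup.inclusion hBD b, rfl⟩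
    have h1 := Subgroup.card_le_of_le hle
    rw [← hKGcard] at h1
    exact h1.trans hKGp
  have hB0p : Nat.card B0 ≤ p := by
    obtain ⟨h1, h2⟩ := sup_zpowers_comm B0 e
      (fun a ha b hb => hBcomm a (hB0B ha) b (hB0B hb)) hB0e
    have hle : B0 ⊔ Subgroup.zpowers e ≤ D :=
      sup_le (hB0B.trans hBD) (Subgroup.zpowers_le.mpr he)
    have h3 := hr _ hle h2 h1
    have hne : B0 ≠ B0 ⊔ Subgroup.zpowers e := by
      intro h
      apply heB
      apply hB0B
      rw [h]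
      exact (le_sup_right : Subgroup.zpowers e ≤ B0 ⊔ Subgroup.zpowers e)
        (Subgroup.mem_zpowers e)
    have h4 := p_mul_card_le p (hDp.to_le hle) le_sup_left hne
    have h5 : p * Nat.card B0 ≤ p * p := by rw [← sq]; exact h4.trans h3
    exact Nat.le_of_mul_le_mul_left h5 hp.pos
  have hcard : Nat.card B = Nat.card ψ.ker * Nat.card ψ.range := by
    rw [← Subgroup.index_ker, Subgroup.card_mul_index]
  rw [hcard, ← hB0card, sq]
  exact Nat.mul_le_mul hB0p hrange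

end Cfsg.Agent.Lib.lead.S1456M2
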