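import Mathlib

set_option autoImplicit false

namespace Cfsg.Agent.Lib.lead.S1456M4

theorem fix_card_le {G : Type*} [Group G] [Finite G] (p : ℕ) [Fact p.Prime] (P D : Subgroup G)
    (hP : IsPGroup p P) (hDP : D ≤ P) (hexp : ∀ d ∈ D, d ^ p = 1) (e : G) (heP : e ∈ P)
    (hep : e ^ p = 1) (heD : e ∉ D)
    (hr : ∀ B : Subgroup G, B ≤ P → (∀ b ∈ B, b * e = e * b) → (∀ a ∈ B, ∀ b ∈ B, a * b = b * a) →
      (∀ b ∈ B, b ^ p = 1) → Nat.card B ≤ p ^ 2) :
    Nat.card ↥(D ⊓ Subgroup.centralizer ({e} : Set G)) ≤ p := by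
  classical
  have hp := (Fact.out : p.Prime)
  by_contra hcon
  push_neg at hcon
  obtain ⟨F, hFdef⟩ : ∃ F : Subgroup G, F = D ⊓ Subgroup.centralizer ({e} : Set G) := ⟨_, rfl⟩
  rw [← hFdef] at hcon
  have hFD : F ≤ D := hFdef ▸ inf_le_left
  have hFC : F ≤ Subgroup.centralizer ({e} : Set G) := hFdef ▸ inf_le_right
  have hFP : F ≤ P := hFD.trans hDP
  have hFp : IsPGroup p F := hP.to_le hFP
  obtain ⟨k, hk⟩ := hFp.exists_card_eq
  have hk2 : 2 ≤ k := by
    by_contra h
    have h1 : k ≤ 1 := by omega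
    have h2 : p ^ k ≤ p ^ 1 := Nat.pow_le_pow_right hp.pos h1
    rw [pow_one] at h2
    omega
  obtain ⟨B0, hB0⟩ := Sylow.exists_subgroup_card_pow_prime (G := F) p (n := 2)
    (by rw [hk]; exact pow_dvd_pow p hk2)
  obtain ⟨B, hBdef⟩ : ∃ B : Subgroup G, B = B0.map F.subtype := ⟨_, rfl⟩
  have hBcard : Nat.card B = p ^ 2 := by
    rw [hBdef, Subgroup.card_map_of_injective (Subgroup.subtype_injective F)]
    exact hB0
  have hBF : B ≤ F := hBdef ▸ Subgroup.map_subtype_le B0
  have hBD : B ≤ D := hBF.trans hFD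
  have hcomm0 : ∀ a b : B0, a * b = b * a :=
    (IsPGroup.isMulCommutative_of_card_eq_prime_sq hB0).is_comm.comm
  have hBcomm : ∀ a ∈ B, ∀ b ∈ B, a * b = b * a := by
    intro a ha b hb
    rw [hBdef] at ha hb
    obtain ⟨a0, ha0, rfl⟩ := ha
    obtain ⟨b0, hb0, rfl⟩ := hb
    have h1 := hcomm0 ⟨a0, ha0⟩ ⟨b0, hb0⟩
    have h2 := congrArg (fun x : ↥B0 => ((x : ↥F) : G)) h1
    simpa using h2
  have hBe : ∀ b ∈ B, b * e = e * b := by
    intro b hb
    have := (Subgroup.mem_centralizer_iff.mp (hFC (hBF hb))) e (Set.mem_singleton e)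
    exact this.symm
  obtain ⟨K, hKdef⟩ : ∃ K : Subgroup G, K = B ⊔ Subgroup.zpowers e := ⟨_, rfl⟩
  have hBK : B ≤ K := hKdef ▸ le_sup_left
  have heK : e ∈ K := by
    have : Subgroup.zpowers e ≤ K := hKdef ▸ le_sup_right
    exact this (Subgroup.mem_zpowers e)
  have hK_le : ∀ H : Subgroup G, B ≤ H → e ∈ H → K ≤ H := by
    intro H h1 h2
    rw [hKdef]
    exact sup_le h1 (Subgroup.zpowers_le.mpr h2)
  have hKP : K ≤ P := hK_le P (hBF.trans hFP) heP
  have hKe : ∀ b ∈ K, b * e = e * b := by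
    intro b hb
    have h1 : K ≤ Subgroup.centralizer ({e} : Set G) := by
      apply hK_le _ (hBF.trans hFC)
      rw [Subgroup.mem_centralizer_iff]
      intro h hh
      rw [Set.mem_singleton_iff] at hh
      rw [hh]
    have := (Subgroup.mem_centralizer_iff.mp (h1 hb)) e (Set.mem_singleton e)
    exact this.symm
  have hKB : ∀ x ∈ B, ∀ y ∈ K, x * y = y * x := by
    intro x hx y hy
    have h1 : K ≤ Subgroup.centralizer ({x} : Set G) := by
      apply hK_le
      · intro b hb
        rw [Subgroup.mem_centralizer_iff]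
        intro h hh
        rw [Set.mem_singleton_iff] at hh
        rw [hh]
        exact hBcomm x hx b hb
      · rw [Subgroup.mem_centralizer_iff]
        intro h hh
        rw [Set.mem_singleton_iff] at hh
        rw [hh]
        exact hBe x hx
    exact (Subgroup.mem_centralizer_iff.mp (h1 hy)) x (Set.mem_singleton x)
  have hKcomm : ∀ a ∈ K, ∀ b ∈ K, a * b = b * a := by
    intro a ha b hb
    have h1 : K ≤ Subgroup.centralizer ({a} : Set G) := by
      apply hK_le
      · intro x hx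
        rw [Subgroup.mem_centralizer_iff]
        intro h hh
        rw [Set.mem_singleton_iff] at hh
        rw [hh]
        exact (hKB x hx a ha).symm
      · rw [Subgroup.mem_centralizer_iff]
        intro h hh
        rw [Set.mem_singleton_iff] at hh
        rw [hh]
        exact hKe a ha
    exact (Subgroup.mem_centralizer_iff.mp (h1 hb)) a (Set.mem_singleton a)
  have hKexp : ∀ b ∈ K, b ^ p = 1 := by
    let T : Subgroup G :=
      { carrier := {x | x ∈ K ∧ x ^ p = 1}
        mul_mem' := by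
          intro a b ha hb
          refine ⟨K.mul_mem ha.1 hb.1, ?_⟩
          have hc : Commute a b := hKcomm a ha.1 b hb.1
          rw [hc.mul_pow, ha.2, hb.2, one_mul]
        one_mem' := ⟨K.one_mem, one_pow p⟩
        inv_mem' := by
          intro a ha
          refine ⟨K.inv_mem ha.1, ?_⟩
          rw [inv_pow, ha.2, inv_one] }
    have hKT : K ≤ T := by
      apply hK_le
      · intro b hb
        exact ⟨hBK hb, hexp b (hBD hb)⟩
      · exact ⟨heK, hep⟩
    intro b hb
    exact (hKT hb).2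
  have hrK := hr K hKP hKe hKcomm hKexp
  have hEq : B = K := Subgroup.eq_of_le_of_card_ge hBK (by rw [hBcard]; exact hrK)
  exact heD (hBD (hEq ▸ heK))

end Cfsg.Agent.Lib.lead.S1456M4
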